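import Cfsg.Agent.Lib.Helper11.ONo.Model
import Cfsg.Agent.Lib.Helper11.Order
import Cfsg.Agent.Lib.Helper11.OrderW

set_option autoImplicit false
set_option maxRecDepth 100000

namespace Cfsg.Agent.Lib.Helper11.ONo

open Cfsg.Spor Cfsg.Spor.ON Cfsg.Agent.Lib.Helper11.ONa

set_option maxHeartbeats 0

noncomputable def mnets : List (List (ℕ × ℕ)) := [[(mk9_0, 65536), (mk9_1, 32768), (mk9_2, 16384), (mk9_3, 8192), (mk9_4, 4096), (mk9_5, 2048), (mk9_6, 1024), (mk9_7, 512), (mk9_8, 256), (mk9_9, 128), (mk9_10, 64), (mk9_11, 32), (mk9_12, 16), (mk9_13, 8), (mk9_14, 4), (mk9_15, 2), (mk9_16, 1), (mk9_17, 2), (mk9_18, 4), (mk9_19, 8), (mk9_20, 16), (mk9_21, 32), (mk9_22, 64), (mk9_23, 128), (mk9_24, 256), (mk9_25, 512), (mk9_26, 1024), (mk9_27, 2048), (mk9_28, 4096), (mk9_29, 8192), (mk9_30, 16384), (mk9_31, 32768), (mk9_32, 65536)], [(mk10_0, 65536), (mk10_1, 32768), (mk10_2,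 16384), (mk10_3, 8192), (mk10_4, 4096), (mk10_5, 2048), (mk10_6, 1024), (mk10_7, 512), (mk10_8, 256), (mk10_9, 128), (mk10_10, 64), (mk10_11, 32), (mk10_12, 16), (mk10_13, 8), (mk10_14, 4), (mk10_15, 2), (mk10_16, 1), (mk10_17, 2), (mk10_18, 4), (mk10_19, 8), (mk10_20, 16), (mk10_21, 32), (mk10_22, 64), (mk10_23, 128), (mk10_24, 256), (mk10_25, 512), (mk10_26, 1024), (mk10_27, 2048), (mk10_28, 4096), (mk10_29, 8192), (mk10_30, 16384), (mk10_31, 32768), (mk10_32, 65536)], [(mk11_0, 65536), (mk11_1, 32768), (mk11_2, 16384), (mk11_3, 8192), (mk11_4, 4096), (mk11_5, 2048), (mk11_6, 1024), (mk11_7, 512), (mk11_8, 256), (mk11_9, 128), (mk11_10, 64), (mk11_11, 32), (mk11_12, 16), (mk11_13, 8), (mk11_14, 4), (mk11_15, 2), (mk11_16, 1), (mk11_17, 2), (mk11_18, 4), (mk11_19, 8), (mk11_20, 16), (mk11_21, 32), (mk11_22, 64), (mk11_23, 128), (mk11_24, 256), (mk11_25, 512), (mk11_26,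 1024), (mk11_27, 2048), (mk11_28, 4096), (mk11_29, 8192), (mk11_30, 16384), (mk11_31, 32768), (mk11_32, 65536)]]
noncomputable def ntl2 : List (List (ℕ × ℕ)) := ntl ++ mnets
def macs : List (List ℕ) := [
  [4, 5, 6, 7, 6, 5, 6, 5, 4, 7, 6, 5, 6, 5, 7, 6, 5, 4, 3, 6, 5, 7, 4, 6, 5, 6, 4, 5, 6, 7, 3, 4, 5, 6, 5, 6, 7, 8, 4, 5, 6, 7, 3, 4, 5],
  [4, 7, 6, 5, 4, 6, 5, 4, 3, 7, 6, 5, 4, 6, 5, 7, 6, 5, 4, 6, 5, 9, 7, 6, 5, 6, 7, 3, 4, 5, 6, 3, 4],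
  [4, 5, 7, 6, 5, 8, 7, 6, 5, 4, 3, 6, 5, 6, 7, 6, 5, 6, 5, 10, 3, 4, 5, 6, 7, 5, 6, 3, 4, 5, 6, 7, 8, 6, 5, 6, 4, 5, 6, 7, 4]]
def levels : List (List ℕ × ℕ × ℕ × ℕ × ℕ) := [
  ([1, 2, 3, 4, 5, 6, 7, 8, 3, 4, 5, 6, 7, 8, 9, 10, 11], 2, 0, 0, 122760),
  ([3, 4, 5, 6, 7, 8, 9, 10, 11], 3, 1, 1, 58653),
  ([9, 10, 11], 3, 222, 222, 64)]

theorem nets2OK : ntl2.all (fun net => net.all (stOK (2 ^ (2 ^ 17)))) = true := by decide +kernel
theorem macOK : macChk (ntOf ntl2) 17 9 macs = true := by decide +kernel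
theorem chainOK : chainChk (ntOf ntl2) 12 levels [] = true := by decide +kernel

theorem hrange : ∀ l < 12, netPerm (ntOf ntl2 l) ∈ psi.range := by
  have h0 : ∀ l < 9, netPerm (ntOf ntl2 l) ∈ psi.range := by
    intro l hl
    refine ⟨PresentedGroup.mk _ ((WExp.l l).eval (fun l => LTFm.getD l 1)), ?_⟩
    rw [psi_eval]
    show wordPerm (ntOf ntl) [l] = _
    rw [wordPerm_single]
    have hlen : ntl.length = 9 := by decide +kernel
    have e : ntOf ntl l = ntOf ntl2 l := by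
      unfold ntOf ntl2
      rw [List.getD_append _ _ _ _ (by omega)]
    rw [e]
  exact macChk_spec psi (ntOf ntl2) 17 (ntOf_ok ntl2 _ nets2OK) macs 9 macOK h0

theorem order (hup : Nat.card Cfsg.Spor.ON ≠ 0 ∧ Nat.card Cfsg.Spor.ON ≤ 460815505920) :
    Nat.card Cfsg.Spor.ON = 460815505920 ∧ stabL psi (pushB levels []) = ⊥ :=
  order_of_chain psi _ (ntOf ntl2) (ntOf_ok ntl2 _ nets2OK) 12 hrange levels chainOK 460815505920
    (by decide +kernel) hup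

theorem hbn : ∀ b ∈ pushB levels [], b < 122760 := by decide


end Cfsg.Agent.Lib.Helper11.ONo
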