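import Cfsg.Agent.Lib.Helper11.ONa.Upper
import Cfsg.Agent.Lib.Helper11.CoxModel
import Cfsg.Agent.Lib.Helper11.ONo.M0
import Cfsg.Agent.Lib.Helper11.ONo.M1
import Cfsg.Agent.Lib.Helper11.ONo.M2
import Cfsg.Agent.Lib.Helper11.ONo.M3

set_option autoImplicit false
set_option maxRecDepth 100000

namespace Cfsg.Agent.Lib.Helper11.ONo

open Cfsg.Spor Cfsg.Spor.ON Cfsg.Agent.Lib.Helper11.ONa

set_option maxHeartbeats 0

noncomputable def ntl : List (List (ℕ × ℕ)) := [[], [(mk1_0, 65536), (mk1_1, 32768), (mk1_2, 16384), (mk1_3, 8192), (mk1_4, 4096), (mk1_5, 2048), (mk1_6, 1024), (mk1_7, 512), (mk1_8, 256), (mk1_9, 128), (mk1_10, 64), (mk1_11, 32), (mk1_12, 16), (mk1_13, 8), (mk1_14, 4), (mk1_15, 2), (mk1_16, 1), (mk1_17, 2), (mk1_18, 4), (mk1_19, 8), (mk1_20, 16), (mk1_21, 32), (mk1_22, 64), (mk1_23, 128), (mk1_24, 256), (mk1_25, 512), (mk1_26, 1024), (mk1_27, 2048), (mk1_28, 4096), (mk1_29, 8192), (mk1_30, 16384),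 (mk1_31, 32768), (mk1_32, 65536)], [(mk2_0, 65536), (mk2_1, 32768), (mk2_2, 16384), (mk2_3, 8192), (mk2_4, 4096), (mk2_5, 2048), (mk2_6, 1024), (mk2_7, 512), (mk2_8, 256), (mk2_9, 128), (mk2_10, 64), (mk2_11, 32), (mk2_12, 16), (mk2_13, 8), (mk2_14, 4), (mk2_15, 2), (mk2_16, 1), (mk2_17, 2), (mk2_18, 4), (mk2_19, 8), (mk2_20, 16), (mk2_21, 32), (mk2_22, 64), (mk2_23, 128), (mk2_24, 256), (mk2_25, 512), (mk2_26, 1024), (mk2_27, 2048), (mk2_28, 4096), (mk2_29, 8192), (mk2_30, 16384), (mk2_31, 32768), (mk2_32, 65536)], [(mk3_0, 65536), (mk3_1, 32768), (mk3_2, 16384), (mk3_3, 8192), (mk3_4, 4096), (mk3_5, 2048), (mk3_6, 1024), (mk3_7, 512), (mk3_8, 256), (mk3_9, 128), (mk3_10, 64), (mk3_11, 32), (mk3_12, 16), (mk3_13, 8), (mk3_14, 4), (mk3_15, 2), (mk3_16, 1), (mk3_17, 2), (mk3_18, 4), (mk3_19, 8), (mk3_20, 16), (mk3_21, 32), (mk3_22, 64), (mk3_23, 128), (mk3_24, 256), (mk3_25, 512), (mk3_26, 1024), (mk3_27,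 2048), (mk3_28, 4096), (mk3_29, 8192), (mk3_30, 16384), (mk3_31, 32768), (mk3_32, 65536)], [(mk4_0, 65536), (mk4_1, 32768), (mk4_2, 16384), (mk4_3, 8192), (mk4_4, 4096), (mk4_5, 2048), (mk4_6, 1024), (mk4_7, 512), (mk4_8, 256), (mk4_9, 128), (mk4_10, 64), (mk4_11, 32), (mk4_12, 16), (mk4_13, 8), (mk4_14, 4), (mk4_15, 2), (mk4_16, 1), (mk4_17, 2), (mk4_18, 4), (mk4_19, 8), (mk4_20, 16), (mk4_21, 32), (mk4_22, 64), (mk4_23, 128), (mk4_24, 256), (mk4_25, 512), (mk4_26, 1024), (mk4_27, 2048), (mk4_28, 4096), (mk4_29, 8192), (mk4_30, 16384), (mk4_31, 32768), (mk4_32, 65536)], [(mk5_0, 65536), (mk5_1, 32768), (mk5_2, 16384), (mk5_3, 8192), (mk5_4, 4096), (mk5_5, 2048), (mk5_6, 1024), (mk5_7, 512), (mk5_8, 256), (mk5_9, 128), (mk5_10, 64), (mk5_11, 32), (mk5_12, 16), (mk5_13, 8), (mk5_14, 4), (mk5_15, 2), (mk5_16, 1), (mk5_17, 2), (mk5_18, 4), (mk5_19, 8), (mk5_20, 16), (mk5_21, 32), (mk5_22, 64), (mk5_23, 128),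 (mk5_24, 256), (mk5_25, 512), (mk5_26, 1024), (mk5_27, 2048), (mk5_28, 4096), (mk5_29, 8192), (mk5_30, 16384), (mk5_31, 32768), (mk5_32, 65536)], [(mk6_0, 65536), (mk6_1, 32768), (mk6_2, 16384), (mk6_3, 8192), (mk6_4, 4096), (mk6_5, 2048), (mk6_6, 1024), (mk6_7, 512), (mk6_8, 256), (mk6_9, 128), (mk6_10, 64), (mk6_11, 32), (mk6_12, 16), (mk6_13, 8), (mk6_14, 4), (mk6_15, 2), (mk6_16, 1), (mk6_17, 2), (mk6_18, 4), (mk6_19, 8), (mk6_20, 16), (mk6_21, 32), (mk6_22, 64), (mk6_23, 128), (mk6_24, 256), (mk6_25, 512), (mk6_26, 1024), (mk6_27, 2048), (mk6_28, 4096), (mk6_29, 8192), (mk6_30, 16384), (mk6_31, 32768), (mk6_32, 65536)], [(mk7_0, 65536), (mk7_1, 32768), (mk7_2, 16384), (mk7_3, 8192), (mk7_4, 4096), (mk7_5, 2048), (mk7_6, 1024), (mk7_7, 512), (mk7_8, 256), (mk7_9, 128), (mk7_10, 64), (mk7_11, 32), (mk7_12, 16), (mk7_13, 8), (mk7_14, 4), (mk7_15, 2), (mk7_16, 1), (mk7_17, 2), (mk7_18, 4), (mk7_19, 8),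 (mk7_20, 16), (mk7_21, 32), (mk7_22, 64), (mk7_23, 128), (mk7_24, 256), (mk7_25, 512), (mk7_26, 1024), (mk7_27, 2048), (mk7_28, 4096), (mk7_29, 8192), (mk7_30, 16384), (mk7_31, 32768), (mk7_32, 65536)], [(mk8_0, 65536), (mk8_1, 32768), (mk8_2, 16384), (mk8_3, 8192), (mk8_4, 4096), (mk8_5, 2048), (mk8_6, 1024), (mk8_7, 512), (mk8_8, 256), (mk8_9, 128), (mk8_10, 64), (mk8_11, 32), (mk8_12, 16), (mk8_13, 8), (mk8_14, 4), (mk8_15, 2), (mk8_16, 1), (mk8_17, 2), (mk8_18, 4), (mk8_19, 8), (mk8_20, 16), (mk8_21, 32), (mk8_22, 64), (mk8_23, 128), (mk8_24, 256), (mk8_25, 512), (mk8_26, 1024), (mk8_27, 2048), (mk8_28, 4096), (mk8_29, 8192), (mk8_30, 16384), (mk8_31, 32768), (mk8_32, 65536)]]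
noncomputable def INVm : ℕ := 9043225707584
def LTFm : List (FreeGroup Gen) := [1, g, (g)⁻¹, a, b, c, d, e, f]
def hExps : List WExp := [(.l 3), (.l 4), (.l 5), (.l 6), (.l 7), (.l 8)]
def gExps : List WExp := [(.l 1), (.l 3), (.l 4), (.l 5), (.l 6), (.l 7), (.l 8)]

theorem netsOK : ntl.all (fun net => net.all (stOK (2 ^ (2 ^ 17)))) = true := by decide +kernel
theorem idOK : (baseWords edges code nodes INVm 8 extraE []).all (wordId (ntOf ntl) 17) = true := by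
  decide +kernel
theorem hfix0 : fixChk (ntOf ntl) (hExps.map (fun e => e.letters INVm)) 0 1 = true := by decide +kernel
theorem htr : growChk (ntOf ntl) (gExps.map (fun e => e.letters INVm)) 5 0 0 122760 = true := by
  decide +kernel
theorem invnOK : fixChk (ntOf ntl) (gExps.map (fun e => e.letters INVm)) 0 122760 = true := by
  decide +kernel

theorem hwords : ∀ r ∈ baseWords edges code nodes INVm 8 extraE [],
    (r.map fun l => netPerm (ntOf ntl l)).prod = 1 :=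
  model_words edges code nodes INVm 8 extraE ntl 17 netsOK idOK
theorem hinvN : ∀ l, netPerm (ntOf ntl (invL INVm l)) = (netPerm (ntOf ntl l))⁻¹ :=
  model_inv edges code nodes INVm 8 extraE ntl hwords (by decide +kernel) rfl (by norm_num)
  (by decide +kernel) (by decide +kernel)
theorem hLTF : ∀ l, FreeGroup.lift (fun x => netPerm (ntOf ntl (code x))) (LTFm.getD l 1) =
      netPerm (ntOf ntl l) := by
  apply hLTF_of LTFm code 8 ntl rfl (by decide +kernel)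
  intro l hl
  interval_cases l
  · exact (map_one _).trans netPerm_nil.symm
  · exact FreeGroup.lift_apply_of
  · exact (map_inv _ _).trans ((congrArg (·⁻¹) (FreeGroup.lift_apply_of (f := fun x => netPerm (ntOf ntl (code x))))).trans (hinvN 1).symm)
  · exact FreeGroup.lift_apply_of
  · exact FreeGroup.lift_apply_of
  · exact FreeGroup.lift_apply_of
  · exact FreeGroup.lift_apply_of
  · exact FreeGroup.lift_apply_of
  · exact FreeGroup.lift_apply_of
theorem hrels : ∀ r ∈ coxRelators edges ∪ {r | r ∈ extra},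
    FreeGroup.lift (fun x => netPerm (ntOf ntl (code x))) r = 1 :=
  model_rels edges extra LTFm code nodes INVm 8 extraE ntl hwords hinvN (by decide)
  (by
    intro r hr
    have : extraE.map (fun e => e.eval (fun l => LTFm.getD l 1)) = extra := rfl
    rw [← this] at hr
    obtain ⟨e, he, h⟩ := List.mem_map.1 hr
    exact ⟨e, he, h⟩) hLTF

/-- the permutation representation -/
noncomputable def psi : Cfsg.Spor.ON →* Equiv.Perm ℕ :=
  PresentedGroup.toGroup (f := fun x => netPerm (ntOf ntl (code x))) hrels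

theorem psi_eval (e : WExp) :
    psi (PresentedGroup.mk (coxRelators edges ∪ {r | r ∈ extra}) (e.eval (fun l => LTFm.getD l 1))) =
      wordPerm (ntOf ntl) (e.letters INVm) :=
  lift_eval LTFm code INVm ntl hinvN hLTF e

theorem hS1 : ∀ s ∈ ({a, b, c, d, e, f} : Set (FreeGroup Gen)), ∃ ex ∈ hExps, ex.eval (fun n => LTFm.getD n 1) = s := by
  intro s hs
  simp only [Set.mem_insert_iff, Set.mem_singleton_iff] at hs
  rcases hs with rfl | rfl | rfl | rfl | rfl | rfl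
  · exact ⟨(.l 3), by simp [hExps], rfl⟩
  · exact ⟨(.l 4), by simp [hExps], rfl⟩
  · exact ⟨(.l 5), by simp [hExps], rfl⟩
  · exact ⟨(.l 6), by simp [hExps], rfl⟩
  · exact ⟨(.l 7), by simp [hExps], rfl⟩
  · exact ⟨(.l 8), by simp [hExps], rfl⟩

theorem hS2 : ∀ ex ∈ hExps, ex.eval (fun n => LTFm.getD n 1) ∈ ({a, b, c, d, e, f} : Set (FreeGroup Gen)) := by
  intro ex he
  simp only [hExps, List.mem_cons, List.mem_nil_iff, or_false] at he
  rcases he with rfl | rfl | rfl | rfl | rfl | rfl <;> simp [WExp.eval, LTFm]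

theorem hgenTop : Subgroup.closure {t : Cfsg.Spor.ON | ∃ e ∈ gExps, t =
    PresentedGroup.mk (coxRelators edges ∪ {r | r ∈ extra}) (e.eval (fun n => LTFm.getD n 1))} = ⊤ := by
  rw [eq_top_iff, ← PresentedGroup.closure_range_of]
  apply Subgroup.closure_mono
  rintro _ ⟨x, rfl⟩
  cases x
  · exact ⟨.l 1, by simp [gExps], rfl⟩
  · exact ⟨.l 3, by simp [gExps], rfl⟩
  · exact ⟨.l 4, by simp [gExps], rfl⟩
  · exact ⟨.l 5, by simp [gExps], rfl⟩
  · exact ⟨.l 6, by simp [gExps], rfl⟩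
  · exact ⟨.l 7, by simp [gExps], rfl⟩
  · exact ⟨.l 8, by simp [gExps], rfl⟩

theorem hgen (g : Cfsg.Spor.ON) : g ∈ Subgroup.closure {t : Cfsg.Spor.ON | ∃ e ∈ gExps, t =
    PresentedGroup.mk (coxRelators edges ∪ {r | r ∈ extra}) (e.eval (fun n => LTFm.getD n 1))} := by
  rw [hgenTop]; exact Subgroup.mem_top g


end Cfsg.Agent.Lib.Helper11.ONo
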