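import Cfsg.Agent.Lib.Helper11.ONo.Model
import Cfsg.Agent.Lib.Helper11.SimpleModel

set_option autoImplicit false
set_option maxRecDepth 100000

namespace Cfsg.Agent.Lib.Helper11.ONo

open Cfsg.Spor Cfsg.Spor.ON Cfsg.Agent.Lib.Helper11.ONa

set_option maxHeartbeats 0

def primL : List (ℕ × ℕ × WExp × ℕ) := [(58653, 8, (.l 1), 5), (52136, 9, (.mul (.l 2) (.mul (.l 4) (.l 1))), 6), (5586, 8, (.mul (.l 1) (.mul (.l 5) (.l 1))), 7), (6384, 7, (.mul (.l 2) (.mul (.l 6) (.mul (.l 4) (.l 1)))), 5)]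
theorem primOK : primChk (ntOf ntl) INVm (hExps.map (fun e => e.letters INVm)) 122760 1 primL = true := by
  decide +kernel

end Cfsg.Agent.Lib.Helper11.ONo
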